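import Mathlib
import Cfsg.Agent.PGroup.Critical
import Cfsg.Agent.ThreeInvAut.Anisotropic

/-!
The automorphism group of a 2-group with exactly three involutions is solvable: squaring on the
elements of order at most four of a critical subgroup is an anisotropic quadratic map.
-/

set_option autoImplicit false

namespace CfsgLib.ThreeInvAut

open CfsgLib.PGroup
open scoped commutatorElement

variable {X : Type*} [Group X] [Finite X] {C : Subgroup X}

section Class

variable (hC : IsCriticalSubgroup 2 C)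
include hC

theorem comm_central {a b c : X} (hb : b ∈ C) (hc : c ∈ C) :
    c * ⁅a, b⁆ = ⁅a, b⁆ * c :=
  Subgroup.mem_centralizer_iff.1 (hC.commutator_mem a b hb) c hc

theorem sq_central {a c : X} (ha : a ∈ C) (hc : c ∈ C) : c * (a * a) = a * a * c := by
  have := Subgroup.mem_centralizer_iff.1 (hC.pow_mem a ha) c hc
  rwa [pow_two] at this

theorem comm_sq {a b : X} (ha : a ∈ C) (hb : b ∈ C) : ⁅a, b⁆ * ⁅a, b⁆ = 1 := by
  have hkb : b * ⁅a, b⁆ = ⁅a, b⁆ * b := comm_central hC hb hb
  have h1 : a * (b * b) * a⁻¹ = b * b := by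
    rw [sq_central hC hb ha, mul_inv_cancel_right]
  have h2 : a * (b * b) * a⁻¹ = ⁅a, b⁆ * ⁅a, b⁆ * (b * b) := by
    calc a * (b * b) * a⁻¹ = (⁅a, b⁆ * b) * (⁅a, b⁆ * b) := by
          simp only [commutatorElement_def]; group
      _ = ⁅a, b⁆ * (b * ⁅a, b⁆) * b := by group
      _ = _ := by rw [hkb]; group
  rw [h1] at h2
  exact mul_eq_right.1 h2.symm

theorem mul_sq {a b : X} (ha : a ∈ C) (hb : b ∈ C) :
    a * b * (a * b) = ⁅a, b⁆ * (a * a * (b * b)) := by
  have hk := comm_sq hC ha hb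
  have hka : a * ⁅a, b⁆ = ⁅a, b⁆ * a := comm_central hC hb ha
  have hba : b * a = ⁅a, b⁆ * (a * b) := by
    have h1 : ⁅a, b⁆ * (b * a) = a * b := by simp only [commutatorElement_def]; group
    rw [← h1, ← mul_assoc, hk, one_mul]
  calc a * b * (a * b) = a * (b * a) * b := by group
    _ = (a * ⁅a, b⁆) * (a * b) * b := by rw [hba]; group
    _ = _ := by rw [hka]; group

theorem comm_mul {a b c : X} (hb : b ∈ C) (hc : c ∈ C) :
    ⁅a, b * c⁆ = ⁅a, b⁆ * ⁅a, c⁆ := by
  have hk : b * ⁅a, c⁆ = ⁅a, c⁆ * b := comm_central hC hc hb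
  calc ⁅a, b * c⁆ = ⁅a, b⁆ * (b * ⁅a, c⁆) * b⁻¹ := by simp only [commutatorElement_def]; group
    _ = ⁅a, b⁆ * ⁅a, c⁆ := by rw [hk]; group

end Class

/-- The involutions and the identity of `C`. -/
def sqSet (C : Subgroup X) : Set X := {x | x ∈ C ∧ x * x = 1}

/-- At most three involutions leave no room for a fourth. -/
theorem four_involutions_false (h3 : Nat.card {x : X // orderOf x = 2} = 3) {a b c d : X}
    (ha : orderOf a = 2) (hb : orderOf b = 2) (hc : orderOf c = 2) (hd : orderOf d = 2)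
    (hab : a ≠ b) (hac : a ≠ c) (had : a ≠ d) (hbc : b ≠ c) (hbd : b ≠ d) (hcd : c ≠ d) : False := by
  classical
  have e4 : ({a, b, c, d} : Set X).ncard = 4 := by
    rw [Set.ncard_insert_of_notMem, Set.ncard_insert_of_notMem, Set.ncard_pair hcd] <;>
      simp [hab, hac, had, hbc, hbd]
  have hle : ({a, b, c, d} : Set X).ncard ≤ {x : X | orderOf x = 2}.ncard := by
    refine Set.ncard_le_ncard ?_ (Set.toFinite _)
    intro x hx
    simp only [Set.mem_insert_iff, Set.mem_singleton_iff] at hx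
    rcases hx with rfl | rfl | rfl | rfl <;> assumption
  have h3' : {x : X | orderOf x = 2}.ncard = 3 := h3
  omega

theorem orderOf_two {a : X} (h : a * a = 1) (h1 : a ≠ 1) : orderOf a = 2 :=
  orderOf_eq_prime (hp := ⟨Nat.prime_two⟩) (by rw [pow_two, h]) h1

section Sets

variable (hC : IsCriticalSubgroup 2 C) (h3 : Nat.card {x : X // orderOf x = 2} = 3)
include hC h3

theorem comm_of_invol {a b : X} (ha : a ∈ C) (hb : b ∈ C) (ha2 : a * a = 1) (hb2 : b * b = 1) :
    ⁅a, b⁆ = 1 := by
  by_contra hk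
  have hne : a * b ≠ b * a := fun e => hk (commutatorElement_eq_one_iff_mul_comm.2 e)
  have hka : a * ⁅a, b⁆ = ⁅a, b⁆ * a := comm_central hC hb ha
  have hkb : b * ⁅a, b⁆ = ⁅a, b⁆ * b := comm_central hC hb hb
  have hkk := comm_sq hC ha hb
  have ha1 : a ≠ 1 := fun e => hne (by rw [e, one_mul, mul_one])
  have hb1 : b ≠ 1 := fun e => hne (by rw [e, one_mul, mul_one])
  have h4 : a * ⁅a, b⁆ * (a * ⁅a, b⁆) = 1 := by
    calc a * ⁅a, b⁆ * (a * ⁅a, b⁆) = a * (⁅a, b⁆ * a) * ⁅a, b⁆ := by group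
      _ = a * a * (⁅a, b⁆ * ⁅a, b⁆) := by rw [← hka]; group
      _ = 1 := by rw [ha2, hkk, one_mul]
  have hak1 : a * ⁅a, b⁆ ≠ 1 := fun e => by
    have hk' : ⁅a, b⁆ = a := by
      rw [eq_inv_of_mul_eq_one_right e, inv_eq_of_mul_eq_one_right ha2]
    rw [hk'] at hkb
    exact hne hkb.symm
  refine four_involutions_false h3 (orderOf_two ha2 ha1) (orderOf_two hb2 hb1) (orderOf_two hkk hk)
    (orderOf_two h4 hak1) ?_ ?_ ?_ ?_ ?_ ?_
  · rintro rfl; exact hne rfl
  · intro e; rw [← e] at hkb; exact hne hkb.symm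
  · intro e; exact hk (mul_eq_left.1 e.symm)
  · intro e; rw [← e] at hka; exact hne hka
  · intro e
    apply hne
    rw [e, mul_assoc, ← hka]
  · intro e; exact ha1 (mul_eq_right.1 e.symm)

theorem comm_invol_four {v x : X} (hv : v ∈ C) (hv2 : v * v = 1) (hx : x ∈ C)
    (hx4 : x * x * (x * x) = 1) : ⁅v, x⁆ = 1 := by
  by_contra hk
  have hne : v * x ≠ x * v := fun e => hk (commutatorElement_eq_one_iff_mul_comm.2 e)
  have hx2 : x * x ≠ 1 := fun e => hk (comm_of_invol hC h3 hv hx hv2 e)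
  have hkv : v * ⁅v, x⁆ = ⁅v, x⁆ * v := comm_central hC hx hv
  have hkx : x * ⁅v, x⁆ = ⁅v, x⁆ * x := comm_central hC hx hx
  have hwx : x * (x * x) = x * x * x := by group
  have hwv : v * (x * x) = x * x * v := sq_central hC hx hv
  have hkk := comm_sq hC hv hx
  have hv1 : v ≠ 1 := fun e => hne (by rw [e, one_mul, mul_one])
  have hvk : v ≠ ⁅v, x⁆ := by
    intro e; rw [← e] at hkx; exact hne hkx.symm
  by_cases hw : x * x = ⁅v, x⁆
  · have h5 : v * x * (v * x) = 1 := by rw [mul_sq hC hv hx, hv2, one_mul, hw, hkk]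
    have h6 := comm_of_invol hC h3 hv (C.mul_mem hv hx) hv2 h5
    rw [comm_mul hC hv hx, commutatorElement_self, one_mul] at h6
    exact hk h6
  · have h4 : v * ⁅v, x⁆ * (v * ⁅v, x⁆) = 1 := by
      calc v * ⁅v, x⁆ * (v * ⁅v, x⁆) = v * (⁅v, x⁆ * v) * ⁅v, x⁆ := by group
        _ = v * v * (⁅v, x⁆ * ⁅v, x⁆) := by rw [← hkv]; group
        _ = 1 := by rw [hv2, hkk, one_mul]
    have hvk1 : v * ⁅v, x⁆ ≠ 1 := fun e => hvk (by
      rw [eq_inv_of_mul_eq_one_right e, inv_eq_of_mul_eq_one_right hv2])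
    refine four_involutions_false h3 (orderOf_two hv2 hv1) (orderOf_two hx4 hx2) (orderOf_two hkk hk)
      (orderOf_two h4 hvk1) ?_ hvk ?_ hw ?_ ?_
    · intro e; exact hne (by rw [e, hwx])
    · intro e; exact hk (mul_eq_left.1 e.symm)
    · intro e
      apply hne
      have e' : x * (v * ⁅v, x⁆) = v * ⁅v, x⁆ * x := by rw [← e, hwx]
      rw [mul_assoc v, ← hkx, ← mul_assoc, ← mul_assoc, mul_left_inj] at e'
      exact e'.symm
    · intro e; exact hv1 (mul_eq_right.1 e.symm)

end Sets

/-- The main theorem. -/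
theorem isSolvable_mulAut (h2 : IsPGroup 2 X) (h3 : Nat.card {x : X // orderOf x = 2} = 3) :
    Group.IsSolvable (MulAut X) := by
  classical
  haveI : Fact (Nat.Prime 2) := ⟨Nat.prime_two⟩
  obtain ⟨C, hC⟩ := exists_criticalSubgroup h2
  haveI : C.Characteristic := hC.characteristic
  have hCinv : ∀ (σ : MulAut X) (x : X), x ∈ C → σ x ∈ C := fun σ x hx => by
    have := (Subgroup.characteristic_iff_map_eq.1 hC.characteristic) σ
    rw [← this]; exact ⟨x, hx, rfl⟩
  let D : Subgroup X :=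
    { carrier := {x | x ∈ C ∧ x * x * (x * x) = 1}
      one_mem' := ⟨C.one_mem, by simp⟩
      inv_mem' := fun {a} ha => ⟨C.inv_mem ha.1, by
        calc a⁻¹ * a⁻¹ * (a⁻¹ * a⁻¹) = (a * a * (a * a))⁻¹ := by group
          _ = 1 := by rw [ha.2, inv_one]⟩
      mul_mem' := fun {a b} ha hb => ⟨C.mul_mem ha.1 hb.1, by
        rw [mul_sq hC ha.1 hb.1]
        have haa := C.mul_mem ha.1 ha.1
        have hbb := C.mul_mem hb.1 hb.1
        have h1 := comm_central hC (a := a) hb.1 (C.mul_mem haa hbb)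
        have h2' : a * a * (b * b) = b * b * (a * a) := sq_central hC hb.1 haa
        calc ⁅a, b⁆ * (a * a * (b * b)) * (⁅a, b⁆ * (a * a * (b * b)))
            = ⁅a, b⁆ * ((a * a * (b * b)) * ⁅a, b⁆) * (a * a * (b * b)) := by group
          _ = ⁅a, b⁆ * ⁅a, b⁆ * ((a * a * (b * b)) * (a * a * (b * b))) := by rw [h1]; group
          _ = a * a * ((b * b) * (a * a)) * (b * b) := by rw [comm_sq hC ha.1 hb.1]; group
          _ = (a * a * (a * a)) * (b * b * (b * b)) := by rw [← h2']; group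
          _ = 1 := by rw [ha.2, hb.2, one_mul]⟩ }
  let V : Subgroup X :=
    { carrier := {x | x ∈ C ∧ x * x = 1}
      one_mem' := ⟨C.one_mem, one_mul 1⟩
      inv_mem' := fun {a} ha => ⟨C.inv_mem ha.1, by rw [← mul_inv_rev, ha.2, inv_one]⟩
      mul_mem' := fun {a b} ha hb => ⟨C.mul_mem ha.1 hb.1, by
        rw [mul_sq hC ha.1 hb.1, comm_of_invol hC h3 ha.1 hb.1 ha.2 hb.2, ha.2, hb.2, one_mul, one_mul]⟩ }
  have hVcard : Nat.card ↥V ≤ 4 := by
    have hsub : (V : Set X) ⊆ insert 1 {x : X | orderOf x = 2} := by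
      intro x hx
      by_cases h1 : x = 1
      · exact Or.inl h1
      · exact Or.inr (orderOf_two hx.2 h1)
    have h1 := (Set.ncard_le_ncard hsub (Set.toFinite _)).trans (Set.ncard_insert_le _ _)
    have h3' : {x : X | orderOf x = 2}.ncard = 3 := h3
    have e0 : (V : Set X).ncard = Nat.card ↥V := rfl
    omega
  have hcentral : ∀ v ∈ V, ∀ x ∈ D, v * x = x * v := fun v hv x hx =>
    commutatorElement_eq_one_iff_mul_comm.1 (comm_invol_four hC h3 hv.1 hv.2 hx.1 hx.2)
  haveI : (V.subgroupOf D).Normal := ⟨fun n hn g => by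
    have e : g * n = n * g := Subtype.ext (hcentral n hn g g.2).symm
    rw [e, mul_inv_cancel_right]; exact hn⟩
  letI : CommGroup ↥V :=
    { (inferInstance : Group ↥V) with
      mul_comm := fun a b => Subtype.ext
        (commutatorElement_eq_one_iff_mul_comm.1 (comm_of_invol hC h3 a.2.1 b.2.1 a.2.2 b.2.2)) }
  let W := ↥D ⧸ V.subgroupOf D
  have hsqmem : ∀ x : ↥D, (x : X) * x ∈ V := fun x => ⟨C.mul_mem x.2.1 x.2.1, x.2.2⟩
  have hWsq : ∀ w : W, w * w = 1 := by
    intro w
    induction w using QuotientGroup.induction_on with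
    | H x =>
      rw [← QuotientGroup.mk_mul, QuotientGroup.eq_one_iff, Subgroup.mem_subgroupOf]
      exact hsqmem x
  letI : CommGroup W :=
    { (inferInstance : Group W) with
      mul_comm := fun a b => by
        have e : ∀ w : W, w⁻¹ = w := fun w => inv_eq_of_mul_eq_one_right (hWsq w)
        calc a * b = (a * b)⁻¹ := (e _).symm
          _ = b * a := by rw [mul_inv_rev, e, e] }
  let q : W → ↥V := fun w => Quotient.liftOn' w (fun x : ↥D => (⟨(x : X) * x, hsqmem x⟩ : ↥V))
    (by
      intro x y hxy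
      rw [QuotientGroup.leftRel_apply, Subgroup.mem_subgroupOf] at hxy
      apply Subtype.ext
      show (x : X) * x = (y : X) * y
      set v := (x : X)⁻¹ * y with hv
      have hy : (y : X) = x * v := by rw [hv, mul_inv_cancel_left]
      have hvV : v ∈ V := hxy
      rw [hy]
      calc (x : X) * x = x * x * (v * v) := by rw [hvV.2, mul_one]
        _ = x * (x * v) * v := by group
        _ = x * (v * x) * v := by rw [hcentral v hvV x x.2]
        _ = x * v * (x * v) := by group)
  have hq : ∀ x : ↥D, q (QuotientGroup.mk x) = ⟨(x : X) * x, hsqmem x⟩ := fun x => rfl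
  have hVsq : ∀ v : ↥V, v * v = 1 := fun v => Subtype.ext v.2.2
  have hpol : ∀ x y : ↥D, ((q (QuotientGroup.mk (x * y)) * q (QuotientGroup.mk x) * q (QuotientGroup.mk y) : ↥V) : X) =
      ⁅(x : X), (y : X)⁆ := by
    intro x y
    rw [hq, hq, hq]
    show (x : X) * y * (x * y) * (x * x) * (y * y) = _
    have h2' : (y : X) * y * (x * x) = x * x * (y * y) := sq_central hC x.2.1 (C.mul_mem y.2.1 y.2.1)
    rw [mul_sq hC x.2.1 y.2.1]
    calc ⁅(x : X), (y : X)⁆ * ((x : X) * x * (y * y)) * (x * x) * (y * y)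
        = ⁅(x : X), (y : X)⁆ * ((x : X) * x * ((y * y) * (x * x)) * (y * y)) := by group
      _ = ⁅(x : X), (y : X)⁆ * (((x : X) * x * (x * x)) * ((y * y) * (y * y))) := by rw [h2']; group
      _ = _ := by rw [x.2.2, y.2.2, one_mul, mul_one]
  have hAn : Aniso q :=
    { sqW := hWsq
      sqV := hVsq
      cardV := hVcard
      map_one := by
        rw [show (1 : W) = QuotientGroup.mk 1 from rfl, hq]
        exact Subtype.ext (one_mul 1)
      aniso := fun w hw => by
        induction w using QuotientGroup.induction_on with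
        | H x =>
          rw [QuotientGroup.eq_one_iff, Subgroup.mem_subgroupOf]
          rw [hq] at hw
          exact ⟨x.2.1, congrArg Subtype.val hw⟩
      bilin := fun a b c => by
        induction a using QuotientGroup.induction_on with
        | H x =>
        induction b using QuotientGroup.induction_on with
        | H y =>
        induction c using QuotientGroup.induction_on with
        | H z =>
          rw [← QuotientGroup.mk_mul, ← QuotientGroup.mk_mul, ← QuotientGroup.mk_mul,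
            ← QuotientGroup.mk_mul]
          apply Subtype.ext
          rw [Subgroup.coe_mul V (_ * _ * _) (_ * _ * _), hpol, hpol, hpol, Subgroup.coe_mul]
          exact comm_mul hC y.2.1 z.2.1 }
  -- the action on the involutions
  let I := {x : X // orderOf x = 2}
  let ψ : MulAut X →* Equiv.Perm I :=
    { toFun := fun σ => σ.toEquiv.subtypeEquiv (fun x => by
        show orderOf x = 2 ↔ orderOf (σ x) = 2
        rw [MulEquiv.orderOf_eq])
      map_one' := Equiv.ext fun _ => rfl
      map_mul' := fun _ _ => Equiv.ext fun _ => rfl }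
  refine solvable_of_hom ψ (solvable_perm (le_of_eq_of_le h3 (by norm_num))) ?_
  have hfixV : ∀ σ : ↥ψ.ker, ∀ v ∈ V, (σ : MulAut X) v = v := by
    intro σ v hv
    by_cases h1 : v = 1
    · rw [h1, _root_.map_one]
    · exact congrArg Subtype.val (Equiv.ext_iff.1 (MonoidHom.mem_ker.1 σ.2) ⟨v, orderOf_two hv.2 h1⟩)
  have hDinv : ∀ (σ : MulAut X) (x : X), x ∈ D → σ x ∈ D := fun σ x hx =>
    ⟨hCinv σ x hx.1, by rw [← map_mul, ← map_mul, hx.2, _root_.map_one]⟩
  let ρ : ↥ψ.ker → ↥D →* ↥D := fun σ =>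
    { toFun := fun x => ⟨(σ : MulAut X) x, hDinv σ x x.2⟩
      map_one' := Subtype.ext (_root_.map_one (σ : MulAut X))
      map_mul' := fun a b => Subtype.ext (map_mul (σ : MulAut X) a.1 b.1) }
  have hρle : ∀ σ : ↥ψ.ker, V.subgroupOf D ≤ (V.subgroupOf D).comap (ρ σ) := by
    intro σ x hx
    rw [Subgroup.mem_comap, Subgroup.mem_subgroupOf]
    show (σ : MulAut X) (x : X) ∈ V
    rw [hfixV σ x hx]; exact hx
  let r : ↥ψ.ker → W → W := fun σ => QuotientGroup.map _ _ (ρ σ) (hρle σ)
  have hr : ∀ (σ τ : ↥ψ.ker) (w : W), r (σ * τ) w = r σ (r τ w) := by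
    intro σ τ w
    induction w using QuotientGroup.induction_on with
    | H x => rfl
  have hr1 : ∀ w : W, r 1 w = w := by
    intro w
    induction w using QuotientGroup.induction_on with
    | H x => rfl
  let Φ : ↥ψ.ker →* MulAut W :=
    { toFun := fun σ =>
        { toFun := r σ
          invFun := r σ⁻¹
          left_inv := fun w => by rw [← hr, inv_mul_cancel, hr1]
          right_inv := fun w => by rw [← hr, mul_inv_cancel, hr1]
          map_mul' := map_mul (QuotientGroup.map _ _ (ρ σ) (hρle σ)) }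
      map_one' := MulEquiv.ext hr1
      map_mul' := fun σ τ => MulEquiv.ext (hr σ τ) }
  have hΦA : ∀ σ, Φ σ ∈ Aniso.isoGroup q := by
    intro σ w
    induction w using QuotientGroup.induction_on with
    | H x =>
      show q (r σ (QuotientGroup.mk x)) = q (QuotientGroup.mk x)
      apply Subtype.ext
      show (σ : MulAut X) (x : X) * (σ : MulAut X) (x : X) = (x : X) * x
      rw [← map_mul, hfixV σ _ (hsqmem x)]
  let Φ' : ↥ψ.ker →* ↥(Aniso.isoGroup q) := Φ.codRestrict _ hΦA
  refine solvable_of_hom Φ' hAn.solvable_isoGroup ?_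
  suffices hp : IsPGroup 2 ↥Φ'.ker by
    haveI := hp.isNilpotent
    infer_instance
  -- odd-order elements of the kernel are trivial
  have hodd : ∀ σ : ↥ψ.ker, Φ' σ = 1 → ∀ t : ℕ, Odd t → (σ : MulAut X) ^ t = 1 → (σ : MulAut X) = 1 := by
    intro σ hσ t ht hσt
    set g : MulAut X := (σ : MulAut X) with hg
    have hchain : ∀ x u : X, g x = x * u → g u = u → ∀ m, (g ^ m) x = x * u ^ m := by
      intro x u hx hu m
      induction m with
      | zero => simp
      | succ m ih => rw [pow_succ', MulAut.mul_apply, ih, map_mul, map_pow, hx, hu, pow_succ', mul_assoc]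
    have hkill : ∀ u : X, u ^ t = 1 → u * u * (u * u) = 1 → u = 1 := by
      intro u h1 h4
      have hd1 : orderOf u ∣ t := orderOf_dvd_of_pow_eq_one h1
      have hd2 : orderOf u ∣ 2 ^ 2 := orderOf_dvd_of_pow_eq_one (by
        rw [show (2 : ℕ) ^ 2 = 2 + 2 from rfl, pow_add, pow_two]; exact h4)
      exact orderOf_eq_one_iff.1 (Nat.eq_one_of_dvd_coprimes ((Nat.coprime_two_right.2 ht).pow_right 2) hd1 hd2)
    have hfixD : ∀ x ∈ D, g x = x := by
      intro x hx
      have h1 : Φ σ = 1 := congrArg Subtype.val hσ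
      have hxD : (x : X) ∈ D := hx
      have h4 : (QuotientGroup.mk (ρ σ ⟨x, hxD⟩) : W) = QuotientGroup.mk (⟨x, hxD⟩ : ↥D) :=
        DFunLike.congr_fun h1 (QuotientGroup.mk (⟨x, hxD⟩ : ↥D) : W)
      rw [eq_comm, QuotientGroup.eq, Subgroup.mem_subgroupOf] at h4
      have hv : x⁻¹ * g x ∈ V := h4
      have hx' : g x = x * (x⁻¹ * g x) := (mul_inv_cancel_left _ _).symm
      have h5 := hchain x _ hx' (hfixV σ _ hv) t
      rw [hσt, MulAut.one_apply, eq_comm, mul_eq_left] at h5
      have := hkill _ h5 (by rw [hv.2, one_mul])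
      rw [hx', this, mul_one]
    have hfixC : ∀ k : ℕ, ∀ x ∈ C, x ^ 2 ^ k = 1 → g x = x := by
      intro k
      induction k with
      | zero =>
        intro x hx hxk
        rw [pow_zero, pow_one] at hxk
        rw [hxk, _root_.map_one]
      | succ k ih =>
        intro x hx hxk
        have hsq : g (x * x) = x * x := ih _ (C.mul_mem hx hx) (by
          rw [← pow_two, ← pow_mul, ← pow_succ']; exact hxk)
        set u := x⁻¹ * g x with hu
        have huC : u ∈ C := C.mul_mem (C.inv_mem hx) (hCinv g x hx)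
        have hx' : g x = x * u := (mul_inv_cancel_left _ _).symm
        have h5 : ⁅x, u⁆ * (x * x * (u * u)) = x * x := by
          rw [← mul_sq hC hx huC, ← hx', ← map_mul, hsq]
        have hk2 := comm_sq hC hx huC
        have hxk' := comm_central hC (a := x) huC (C.mul_mem hx hx)
        have huu : u * u = ⁅x, u⁆ := by
          rw [← mul_assoc, ← hxk', mul_assoc, mul_eq_left] at h5
          calc u * u = ⁅x, u⁆ * ⁅x, u⁆ * (u * u) := by rw [hk2, one_mul]
            _ = ⁅x, u⁆ := by rw [mul_assoc, h5, mul_one]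
        have huD : u ∈ D := ⟨huC, by rw [huu, hk2]⟩
        have h6 := hchain x u hx' (hfixD u huD) t
        rw [hσt, MulAut.one_apply, eq_comm, mul_eq_left] at h6
        rw [hx', hkill u h6 huD.2, mul_one]
    refine hC.aut_eq_one h2 ?_ (fun c hc => ?_)
    · exact Nat.Coprime.coprime_dvd_left (orderOf_dvd_of_pow_eq_one hσt) (Nat.coprime_two_right.2 ht)
    · obtain ⟨k, hk⟩ := h2 c
      exact hfixC k c hc hk
  rintro ⟨σ, hσ⟩
  obtain ⟨k, t, ht, hkt⟩ := Nat.exists_eq_two_pow_mul_odd (orderOf_pos σ).ne'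
  refine ⟨k, Subtype.ext ?_⟩
  show σ ^ 2 ^ k = 1
  apply Subtype.ext
  refine hodd (σ ^ 2 ^ k) ?_ t ht ?_
  · rw [map_pow, MonoidHom.mem_ker.1 hσ, one_pow]
  · have := congrArg Subtype.val (pow_orderOf_eq_one σ)
    rw [hkt, pow_mul] at this
    exact this

end CfsgLib.ThreeInvAut
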